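import Cfsg.Agent.Lib.H04.Res.D4
import Cfsg.Agent.Lib.H04.Chev.Gen
import Cfsg.Prelude.Def_LieTypeDatum

/-!
# The triality automorphism has fixed points of type `G₂`
-/

set_option autoImplicit false
set_option maxRecDepth 100000
set_option linter.style.longLine false
set_option linter.unusedVariables false

open Cfsg.Lie Cfsg.Agent.H04.Chev Cfsg.Agent.H04.Tw

namespace Cfsg.Agent.H04.Res.RD4

lemma long_false : ∀ j, j < 4 → chevD4.isLong (chevD4.simple j) = false := by decide +kernel

lemma exp_one (c i j : ℕ) (hj : j < 4) : chevD4.graphExp c i j = 1 := by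
  unfold ChevalleyDatum.graphExp
  rw [long_false j hj]
  rfl

/-- the permutation -/
def rhoP : Equiv.Perm (Fin 4) := ⟨![2, 1, 3, 0], ![3, 1, 0, 2], by decide, by decide⟩

lemma sym_cases : ∀ π : Equiv.Perm (Fin 4), (∀ i j : Fin 4, i ≠ j → chevD4.bonds (π i) (π j) = chevD4.bonds i j) →
    π * π = 1 ∨ π = rhoP ∨ π = rhoP⁻¹ := by decide +kernel

lemma rhoP_eq : ∀ i : Fin 4, (rhoP i : ℕ) = TD4.rho i := by decide
lemma rhoPi_eq : ∀ i : Fin 4, ((rhoP⁻¹) i : ℕ) = TD4.rhoI i := by decide

variable {F : Type*} [Field F] [Fintype F]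

theorem triality_aux (τ : MulAut ↥(chevD4.group F)) (hτ3 : orderOf τ = 3) (π : Equiv.Perm (Fin 4))
    (hsym : ∀ i j : Fin 4, i ≠ j → chevD4.bonds (π i) (π j) = chevD4.bonds i j)
    (hact' : ∀ (g : ↥(chevD4.group F)) (i : Fin 4) (t : F),
      (((g : GL chevD4.Idx F) : Matrix chevD4.Idx chevD4.Idx F) = chevD4.x F (chevD4.simple i) t →
        ((τ g : GL chevD4.Idx F) : Matrix chevD4.Idx chevD4.Idx F) = chevD4.x F (chevD4.simple (π i : Fin 4)) t) ∧
      (((g : GL chevD4.Idx F) : Matrix chevD4.Idx chevD4.Idx F) = chevD4.x F (chevD4.neg (chevD4.simple i)) t →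
        ((τ g : GL chevD4.Idx F) : Matrix chevD4.Idx chevD4.Idx F) = chevD4.x F (chevD4.neg (chevD4.simple (π i : Fin 4))) t)) :
    Nonempty (↥(MonoidHom.eqLocus τ.toMonoidHom (MonoidHom.id ↥(chevD4.group F))) ≃* ↥(chevG2.group F)) := by
  have hfin : ∀ i : ℕ, i < chevD4.rank → ∃ i' : Fin 4, (i' : ℕ) = i := fun i hi => ⟨⟨i, hi⟩, rfl⟩
  have key : Nonempty (↥(Fx TD4.twT (RingEquiv.refl F) ⊓ chevD4.group F) ≃* ↥(chevG2.group F)) := fix_iso
  have hA : ∀ (B : MulAut ↥(chevD4.group F)), (B = graphAut TD4.checks TD4.twT ∨ B = (graphAut TD4.checks TD4.twT).symm) →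
      ∀ g (hg : g ∈ chevD4.group F), (⟨g, hg⟩ : ↥(chevD4.group F)) ∈ MonoidHom.eqLocus B.toMonoidHom (MonoidHom.id ↥(chevD4.group F)) ↔
        sig TD4.twT (RingEquiv.refl F) g = g := by
    intro B hB g hg
    rw [← mem_fix_iff TD4.checks TD4.twT hg]
    show B ⟨g, hg⟩ = ⟨g, hg⟩ ↔ _
    rcases hB with rfl | rfl
    · rfl
    · rw [MulEquiv.symm_apply_eq]
      exact ⟨fun h => h.symm, fun h => h.symm⟩
  rcases sym_cases π hsym with h2 | h2 | h2
  · exfalso
    have hone : τ * τ = 1 := by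
      apply MulEquiv.ext
      intro y
      refine hom_ext_fund TD4.checks TD4.checks3 (τ.toMonoidHom.comp τ.toMonoidHom) (MonoidHom.id _) ?_ y
      intro y i t hi hy
      obtain ⟨i', rfl⟩ := hfin i hi
      show τ (τ y) = y
      have hπi : π (π i') = i' := by
        have := congrArg (fun p : Equiv.Perm (Fin 4) => p i') h2
        simpa using this
      apply Subtype.ext
      apply Units.ext
      rcases hy with hy | hy
      · have h3 := (hact' y i' t).1 hy
        have h4 := (hact' (τ y) (π i') t).1 h3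
        rw [h4, hπi, hy]
      · have h3 := (hact' y i' t).2 hy
        have h4 := (hact' (τ y) (π i') t).2 h3
        rw [h4, hπi, hy]
    have h5 : orderOf τ ∣ 2 := orderOf_dvd_of_pow_eq_one (by rw [sq]; exact hone)
    rw [hτ3] at h5
    omega
  · subst h2
    have he : τ = graphAut TD4.checks TD4.twT := by
      apply MulEquiv.ext
      intro y
      refine hom_ext_fund TD4.checks TD4.checks3 τ.toMonoidHom (graphAut TD4.checks TD4.twT).toMonoidHom ?_ y
      intro y i t hi hy
      obtain ⟨i', rfl⟩ := hfin i hi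
      show τ y = graphAut TD4.checks TD4.twT y
      have hg := graphAut_apply TD4.checks TD4.twT TD4.jT (g := y) (t := t) hi
      apply Subtype.ext
      apply Units.ext
      rcases hy with hy | hy
      · rw [(hact' y i' t).1 hy, hg.1 hy, rhoP_eq]
      · rw [(hact' y i' t).2 hy, hg.2 hy, rhoP_eq]
    exact equiv_of_map TD4.checks TD4.twT _ (hA τ (Or.inl he)) key
  · subst h2
    have he : τ = (graphAut TD4.checks TD4.twT).symm := by
      apply MulEquiv.ext
      intro y
      refine hom_ext_fund TD4.checks TD4.checks3 τ.toMonoidHom (graphAut TD4.checks TD4.twT).symm.toMonoidHom ?_ y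
      intro y i t hi hy
      obtain ⟨i', rfl⟩ := hfin i hi
      show τ y = (graphAut TD4.checks TD4.twT).symm y
      have hri : TD4.rhoI i' < chevD4.rank := by
        rw [← rhoPi_eq]
        exact (rhoP⁻¹ i').2
      have hg := graphAut_symm_apply TD4.checks TD4.twT TD4.jT (g := y) (t := t) hi hri
      apply Subtype.ext
      apply Units.ext
      rcases hy with hy | hy
      · rw [(hact' y i' t).1 hy, hg.1 hy, rhoPi_eq]
      · rw [(hact' y i' t).2 hy, hg.2 hy, rhoPi_eq]
    exact equiv_of_map TD4.checks TD4.twT _ (hA τ (Or.inr he)) key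

theorem triality (τ : MulAut ↥(chevD4.group F)) (hτ : chevD4.IsGraphAut τ) (hτ3 : orderOf τ = 3) :
    Nonempty (↥(MonoidHom.eqLocus τ.toMonoidHom (MonoidHom.id ↥(chevD4.group F))) ≃* ↥(chevG2.group F)) := by
  obtain ⟨π, hπ, hact⟩ := hτ
  refine triality_aux τ hτ3 π hπ ?_
  intro g i t
  have h := hact g i t
  have he : chevD4.graphExp (ringChar F) i (π i : Fin 4) = 1 := exp_one _ _ _ (π i : Fin 4).2
  rw [he, pow_one] at h
  exact h

end Cfsg.Agent.H04.Res.RD4
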