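import Cfsg.Agent.Lib.H04.Res.Core
import Cfsg.Agent.Lib.H04.Tw.D4P
import Cfsg.Agent.Lib.H04.Chev.Tab.G2_all3
import Cfsg.Agent.Lib.H04.Chev.Tab.G2_all2

/-! Generated: the restriction from type D4 to type G2. -/

set_option autoImplicit false
set_option maxRecDepth 100000
set_option linter.style.longLine false
set_option Elab.async false

open Cfsg.Lie Cfsg.Agent.H04.Chev Cfsg.Agent.H04.Tw

namespace Cfsg.Agent.H04.Res.RD4

/-- the restriction of coordinates -/
def res (c : ℕ) : ℕ := ([0, 1, 2, 2, 3, 4, 2, 3, 3, 5, 4, 4, 7, 7, 6, 8, 8, 9, 7, 8, 9, 9, 10, 11, 12, 13, 12, 12] : List ℕ).getD c 0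
/-- the signs -/
def ep (c : ℕ) : Bool := ([true, true, true, true, false, false, false, true, true, false, false, false, false, false, false, true, true, false, false, false, true, true, true, true, false, false, false, false] : List Bool).getD c false
/-- the fibres -/
def O (j : ℕ) : List ℕ := ([[0], [1], [2, 3, 6], [4, 7, 8], [5, 10, 11], [9], [14], [18, 13, 12], [15, 16, 19], [17, 20, 21], [22], [23], [24, 26, 27], [25]] : List (List ℕ)).getD j []

theorem resT : ResT chevD4 chevG2 TD4.T TG2.T TD4.G res ep O where
  res_lt := by decide +kernel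
  O_nodup := by decide +kernel
  O_ne := by decide +kernel
  O_mem := by decide +kernel
  O_cov := by decide +kernel
  O_root := by decide +kernel
  col_lt := by decide +kernel
  rel := by decide +kernel
  fixw := by decide +kernel
  sgn := by decide +kernel
  bar_mem := by decide +kernel
  res_root := by decide +kernel
  res_tor := by
    have h : ∀ c, c < chevD4.nroots + chevD4.rank → chevD4.nroots ≤ c → chevG2.nroots ≤ res c := by decide +kernel
    exact fun c h1 h2 => h c h2 h1
  lvneg := by decide +kernel
  pos := by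
    have h : ∀ s, s < chevD4.nroots → chevD4.nroots / 2 ≤ s → chevG2.nroots / 2 ≤ res s := by decide +kernel
    exact fun s h1 h2 => h s h2 h1
  pos' := by decide +kernel
  hc := ClT_of (by decide +kernel) (by decide +kernel)
  orb := by
    have h : ∀ β, β < chevG2.nroots → chevG2.nroots / 2 ≤ β → (O β).headD 0 ∈ O β ∧ ∀ s ∈ O β, s = (O β).headD 0 ∨ s = TD4.G.bar ((O β).headD 0) ∨ s = TD4.G.bar (TD4.G.bar ((O β).headD 0)) := by decide +kernel
    exact fun β h1 h2 => ⟨_, (h β h2 h1).1, (h β h2 h1).2⟩

variable {K : Type*} [Field K] [Fintype K]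

theorem hgen : Fx TD4.twT (RingEquiv.refl K) ⊓ chevD4.group K ≤ YG TD4.checks K ep O chevG2.nroots := by
  have hf : ∀ t : K, (RingEquiv.refl K) t = t ^ 1 := fun t => (pow_one t).symm
  rw [← TD4.GS_eq' hf (fun _ => rfl)]
  apply TD4.gen_le hf (fun _ => rfl)
  · intro j hj c hc
    interval_cases j
    · exact xI_mem_YG TD4.checks TD4.jT (j := 0) (β := 6) (by decide) (by decide) (by decide +kernel) (by decide +kernel) hc
    · exact xI_mem_YG TD4.checks TD4.jT (j := 1) (β := 7) (by decide) (by decide) (by decide +kernel) (by decide +kernel) hc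
  · intro j hj c hc
    interval_cases j
    · exact yI_mem_YG TD4.checks TD4.jT (j := 0) (β := 5) (by decide) (by decide) (by decide +kernel) (by decide +kernel) hc
    · exact yI_mem_YG TD4.checks TD4.jT (j := 1) (β := 4) (by decide) (by decide) (by decide +kernel) (by decide +kernel) hc

/-- the fixed points are isomorphic to the smaller Chevalley group -/
theorem fix_iso : Nonempty (↥(Fx TD4.twT (RingEquiv.refl K) ⊓ chevD4.group K) ≃* ↥(chevG2.group K)) :=
  res_main TD4.checks TD4.checks2 TD4.checks3 TG2.checks TG2.checks2 TD4.twT resT hgen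

end Cfsg.Agent.H04.Res.RD4
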